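import Cfsg.Agent.Bal.Cond
import Cfsg.Prelude.Def_CaseTheorems

/-!
# Core-free subgroups: a component which is moved by `O(C_H(t))`
-/

set_option autoImplicit false

namespace Cfsg.Agent.Bal

open Subgroup Cfsg.Agent.FStar Cfsg.Agent.H31 Cfsg.Agent.BG
open scoped Pointwise commutatorElement

variable {G : Type*} [Group G] [Finite G]

/-- In a group with `O_{p'} = 1`: a nontrivial subgroup of `O_{p'}(C(x))` fails to centralize some component,
which is normalized and not centralized by `x`. -/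
theorem exists_component_not_centralized {p : ℕ} [Fact p.Prime] (hO : Cfsg.pPrimeCore p G = ⊥) {x y : G}
    (hx : orderOf x = p) (hy : y ∈ Cfsg.centralizerPPrimeCore p x) (hy1 : y ≠ 1) :
    ∃ L : Subgroup G, Cfsg.IsComponent L ∧ y ∉ centralizer (L : Set G) ∧ x ∈ normalizer (L : Set G) ∧
      x ∉ centralizer (L : Set G) ∧ Cfsg.centralizerPPrimeCore p x ≤ normalizer (L : Set G) := by
  by_contra hcon
  push Not at hcon
  apply hy1
  apply eq_one_of_centralizes hO
  · exact Cfsg.Agent.Transfer.coprime_orderOf_of_coprime_card (card_cpc_coprime x) hy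
  · intro L hL
    by_contra hyL
    have hxN : x ∈ normalizer (L : Set G) := by
      by_contra hxL
      have h1 := commute_of_not_mem_normalizer hO hL hx hxL
      rw [Subgroup.commutator_comm, Subgroup.commutator_eq_bot_iff_le_centralizer] at h1
      exact hyL (h1 hy)
    have hxC : x ∉ centralizer (L : Set G) := by
      intro hxC
      have h0 : ⁅L, zpowers x⁆ ≠ L := by
        have h1 : ⁅L, zpowers x⁆ = ⊥ := by
          rw [Subgroup.commutator_comm, Subgroup.commutator_eq_bot_iff_le_centralizer, zpowers_le]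
          exact hxC
        rw [h1]; exact (ne_bot hL.2).symm
      have h1 := commute_of_commutator_ne hO hL hx h0
      rw [Subgroup.commutator_comm, Subgroup.commutator_eq_bot_iff_le_centralizer] at h1
      exact hyL (h1 hy)
    exact hcon L hL hyL hxN hxC (centralizerPPrimeCore_le_normalizer hO hL hx)
  · exact mem_centralizer_pCore_of_cpc hx hy

section Ext

variable {H : Subgroup G} {t : G}

omit [Finite G] in
theorem sup_zpowers_le (htH : t ∈ normalizer (H : Set G)) : H ⊔ zpowers t ≤ normalizer (H : Set G) :=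
  sup_le Subgroup.le_normalizer ((zpowers_le).2 htH)

omit [Finite G] in
theorem sup_zpowers_decomp (htH : t ∈ normalizer (H : Set G)) {x : G} (hx : x ∈ H ⊔ zpowers t) :
    ∃ i : ℤ, ∃ h ∈ H, x = t ^ i * h := by
  rw [sup_comm] at hx
  obtain ⟨z, hz, h, hh, rfl⟩ := mem_sup_of_le_normalizer ((zpowers_le).2 htH) hx
  obtain ⟨i, rfl⟩ := mem_zpowers_iff.1 hz
  exact ⟨i, h, hh, rfl⟩

omit [Finite G] in
/-- the quotient `H⟨t⟩/H`. -/
theorem exists_quot (htH : t ∈ normalizer (H : Set G)) (ht : t ^ 2 = 1) :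
    (∀ x ∈ H ⊔ zpowers t, ∀ y ∈ H ⊔ zpowers t, ⁅x, y⁆ ∈ H) ∧ ∀ x ∈ H ⊔ zpowers t, x ^ 2 ∈ H := by
  set X := H ⊔ zpowers t with hX
  have hHX : H ≤ X := le_sup_left
  have htX : t ∈ X := mem_sup_right (mem_zpowers t)
  haveI hn : (H.subgroupOf X).Normal := (Subgroup.normal_subgroupOf_iff_le_normalizer hHX).2 (sup_zpowers_le htH)
  set f : X →* X ⧸ H.subgroupOf X := QuotientGroup.mk' _ with hf
  have hf1 : ∀ x : X, f x = 1 ↔ (x : G) ∈ H := by
    intro x
    rw [hf, QuotientGroup.mk'_apply, QuotientGroup.eq_one_iff, Subgroup.mem_subgroupOf]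
  have hf2 : ∀ x : X, ∃ i : ℤ, f x = (f ⟨t, htX⟩) ^ i := by
    rintro ⟨x, hx⟩
    obtain ⟨i, h, hh, rfl⟩ := sup_zpowers_decomp htH hx
    refine ⟨i, ?_⟩
    have h1 : (⟨t ^ i * h, hx⟩ : X) = ⟨t, htX⟩ ^ i * ⟨h, hHX hh⟩ := rfl
    rw [h1, map_mul, (hf1 ⟨h, hHX hh⟩).2 hh, mul_one, map_zpow]
  constructor
  · intro x hx y hy
    have h1 : f ⁅(⟨x, hx⟩ : X), (⟨y, hy⟩ : X)⁆ = 1 := by
      obtain ⟨i, hi⟩ := hf2 ⟨x, hx⟩
      obtain ⟨j, hj⟩ := hf2 ⟨y, hy⟩
      rw [map_commutatorElement, hi, hj, commutatorElement_eq_one_iff_mul_comm, ← zpow_add, ← zpow_add, add_comm]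
    exact (hf1 _).1 h1
  · intro x hx
    have h1 : f ((⟨x, hx⟩ : X) ^ 2) = 1 := by
      obtain ⟨i, hi⟩ := hf2 ⟨x, hx⟩
      have h2 : (f ⟨t, htX⟩) ^ 2 = 1 := by
        rw [← map_pow]
        have : (⟨t, htX⟩ : X) ^ 2 = 1 := Subtype.ext ht
        rw [this, map_one]
      rw [map_pow, hi, ← zpow_natCast, ← zpow_mul, mul_comm, zpow_mul, zpow_natCast, h2, one_zpow]
    exact (hf1 _).1 h1

/-- `O(H⟨t⟩) = 1` if `O(H) = 1`. -/
theorem pPrimeCore_sup_eq_bot (hO : Cfsg.pPrimeCore 2 ↥H = ⊥) (ht : t ^ 2 = 1)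
    (htH : t ∈ normalizer (H : Set G)) : Cfsg.pPrimeCore 2 ↥(H ⊔ zpowers t) = ⊥ := by
  haveI : Fact (Nat.Prime 2) := ⟨Nat.prime_two⟩
  set X := H ⊔ zpowers t with hX
  have hHX : H ≤ X := le_sup_left
  have h2 := (exists_quot htH ht).2
  have hmem : ∀ x ∈ Cfsg.pPrimeCore 2 X, (x : G) ∈ H := by
    intro x hx
    have h3 := Cfsg.Agent.Transfer.coprime_orderOf_of_coprime_card
      (Cfsg.Agent.Solv.pPrimeCore_card_coprime (G := X) 2) hx
    have h4 : ((x : G) ^ 2) ^ ((orderOf (x : G) + 1) / 2) = x := by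
      have h5 : Odd (orderOf (x : G)) := by
        rw [Subgroup.orderOf_coe]; exact Nat.Coprime.odd_of_right h3
      obtain ⟨k, hk⟩ := h5
      rw [← pow_mul, hk, show 2 * ((2 * k + 1 + 1) / 2) = (2 * k + 1) + 1 from by omega, pow_succ, ← hk,
        pow_orderOf_eq_one, one_mul]
    rw [← h4]
    exact pow_mem (h2 x x.2) _
  rw [eq_bot_iff]
  intro x hx
  have h5 : (Cfsg.pPrimeCore 2 X).comap (inclusion hHX) ≤ Cfsg.pPrimeCore 2 H := by
    apply Cfsg.Agent.Solv.le_pPrimeCore inferInstance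
    exact Nat.Coprime.coprime_dvd_left (Subgroup.card_comap_dvd_of_injective _ _ (inclusion_injective hHX))
      (Cfsg.Agent.Solv.pPrimeCore_card_coprime (G := X) 2)
  have h6 : (⟨x, hmem x hx⟩ : H) ∈ Cfsg.pPrimeCore 2 H := h5 hx
  rw [hO, Subgroup.mem_bot] at h6
  rw [Subgroup.mem_bot]
  have h7 : (x : G) = 1 := congrArg Subtype.val h6
  exact Subtype.ext h7

/-- S1328. -/
theorem core_free_subgroup (hO : Cfsg.oddCore ↥H = ⊥) (ht : orderOf t = 2) (htH : t ∈ normalizer (H : Set G))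
    {Y : Subgroup G} (hY1 : Y ≠ ⊥)
    (hY : Y ≤ (Cfsg.oddCore ↥(H ⊓ centralizer ({t} : Set G))).map (H ⊓ centralizer ({t} : Set G)).subtype) :
    ∃ E : Subgroup ↥H, Cfsg.IsComponent E ∧ (E.map H.subtype).map (MulAut.conj t).toMonoidHom = E.map H.subtype ∧
      Y ≤ normalizer ((E.map H.subtype : Subgroup G) : Set G) ∧
      ¬ (t ∈ centralizer ((E.map H.subtype : Subgroup G) : Set G)) ∧
      ¬ (Y ≤ centralizer ((E.map H.subtype : Subgroup G) : Set G)) := by
  haveI : Fact (Nat.Prime 2) := ⟨Nat.prime_two⟩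
  have ht2 : t ^ 2 = 1 := by rw [← ht, pow_orderOf_eq_one]
  set X := H ⊔ zpowers t with hX
  have hHX : H ≤ X := le_sup_left
  have htX : t ∈ X := mem_sup_right (mem_zpowers t)
  have hXO : Cfsg.pPrimeCore 2 X = ⊥ := pPrimeCore_sup_eq_bot hO ht2 htH
  have hXH : X ≤ normalizer (H : Set G) := sup_zpowers_le htH
  have hox : orderOf (⟨t, htX⟩ : X) = 2 := by rw [Subgroup.orderOf_mk, ht]
  have hYW : Y ≤ pPrimeCoreOf 2 (H ⊓ centralizer ({t} : Set G)) := hY
  have hYH : Y ≤ H := (hYW.trans (pPrimeCoreOf_le _)).trans inf_le_left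
  -- O(C_H(t)) ≤ O(C_X(t))
  have hW : (pPrimeCoreOf 2 (H ⊓ centralizer ({t} : Set G))).subgroupOf X ≤
      Cfsg.centralizerPPrimeCore 2 (⟨t, htX⟩ : X) := by
    have h1 : (pPrimeCoreOf 2 (H ⊓ centralizer ({t} : Set G))).subgroupOf X ≤
        pPrimeCoreOf 2 (centralizer ({(⟨t, htX⟩ : X)} : Set X)) := by
      apply le_pPrimeCoreOf
      · intro x hx
        have h2 := (pPrimeCoreOf_le _ (Subgroup.mem_subgroupOf.1 hx)).2
        refine Subgroup.mem_centralizer_singleton_iff.2 (Subtype.ext ?_)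
        exact Subgroup.mem_centralizer_singleton_iff.1 h2
      · intro x hx
        have hxt : (x : G) ∈ centralizer ({t} : Set G) := by
          refine Subgroup.mem_centralizer_singleton_iff.2 ?_
          exact congrArg Subtype.val (Subgroup.mem_centralizer_singleton_iff.1 hx)
        have hxn : (x : G) ∈ normalizer ((H ⊓ centralizer ({t} : Set G) : Subgroup G) : Set G) := by
          refine mem_normalizer_of_forall fun y hy => ?_
          obtain ⟨hy1, hy2⟩ := Subgroup.mem_inf.1 hy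
          exact Subgroup.mem_inf.2 ⟨(Subgroup.mem_normalizer_iff.1 (hXH x.2) y).1 hy1,
            mul_mem (mul_mem hxt hy2) (inv_mem hxt)⟩
        have hxn' := le_normalizer_pPrimeCoreOf (p := 2) _ hxn
        refine mem_normalizer_of_forall fun y hy => ?_
        rw [Subgroup.mem_subgroupOf] at hy ⊢
        exact (Subgroup.mem_normalizer_iff.1 hxn' y).1 hy
      · exact Nat.Coprime.coprime_dvd_left (Subgroup.card_comap_dvd_of_injective _ X.subtype X.subtype_injective)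
          (card_pPrimeCoreOf_coprime _)
    exact h1
  obtain ⟨⟨y, hyY⟩, hy1⟩ := (Subgroup.ne_bot_iff_exists_ne_one).1 hY1
  have hy1' : y ≠ 1 := fun h => hy1 (Subtype.ext h)
  have hyX : y ∈ X := hHX (hYH hyY)
  have hyc : (⟨y, hyX⟩ : X) ∈ Cfsg.centralizerPPrimeCore 2 (⟨t, htX⟩ : X) :=
    hW (Subgroup.mem_subgroupOf.2 (hYW hyY))
  obtain ⟨L, hL, hyL, htN, htC, hcL⟩ := exists_component_not_centralized hXO hox hyc
    (fun h => hy1' (congrArg Subtype.val h))
  -- `L ≤ H`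
  have hLH : ∀ x ∈ L, (x : G) ∈ H := by
    have h1 : L ≤ H.comap X.subtype := by
      rw [← commutator_self hL.2, Subgroup.commutator_le]
      intro a _ b _
      exact (exists_quot htH ht2).1 a a.2 b b.2
    exact h1
  set E : Subgroup H := L.comap (inclusion hHX) with hE
  have hEL : E.map H.subtype = L.map X.subtype := by
    ext g
    constructor
    · rintro ⟨x, hx, rfl⟩
      exact ⟨inclusion hHX x, hx, rfl⟩
    · rintro ⟨x, hx, rfl⟩
      exact ⟨⟨x, hLH x hx⟩, hx, rfl⟩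
  have hEc : Cfsg.IsComponent E := by
    refine ⟨hL.1.comap _, ?_⟩
    have e1 := E.equivMapOfInjective H.subtype H.subtype_injective
    have e2 := L.equivMapOfInjective X.subtype X.subtype_injective
    have h1 : Cfsg.IsQuasisimple ↥(L.map X.subtype) := (isQuasisimple_congr e2).1 hL.2
    rw [← hEL] at h1
    exact (isQuasisimple_congr e1).2 h1
  refine ⟨E, hEc, ?_, ?_, ?_, ?_⟩
  · rw [hEL]
    apply le_antisymm
    · rintro _ ⟨_, ⟨x, hx, rfl⟩, rfl⟩
      exact ⟨⟨t, htX⟩ * x * (⟨t, htX⟩ : X)⁻¹, (Subgroup.mem_normalizer_iff.1 htN x).1 hx, rfl⟩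
    · rintro _ ⟨x, hx, rfl⟩
      have htN' : (⟨t, htX⟩ : X)⁻¹ ∈ normalizer (L : Set X) := inv_mem htN
      have h1 := (Subgroup.mem_normalizer_iff.1 htN' x).1 hx
      refine ⟨_, ⟨_, h1, rfl⟩, ?_⟩
      show t * (t⁻¹ * x * (t⁻¹)⁻¹) * t⁻¹ = x
      group
  · rw [hEL]
    intro z hz
    have hzc : (⟨z, hHX (hYH hz)⟩ : X) ∈ normalizer (L : Set X) :=
      hcL (hW (Subgroup.mem_subgroupOf.2 (hYW hz)))
    refine mem_normalizer_of_forall ?_
    rintro _ ⟨x, hx, rfl⟩
    exact ⟨_, (Subgroup.mem_normalizer_iff.1 hzc x).1 hx, rfl⟩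
  · rw [hEL]
    intro h
    apply htC
    refine Subgroup.mem_centralizer_iff.2 fun x hx => Subtype.ext ?_
    exact Subgroup.mem_centralizer_iff.1 h x ⟨x, hx, rfl⟩
  · rw [hEL]
    intro h
    apply hyL
    refine Subgroup.mem_centralizer_iff.2 fun x hx => Subtype.ext ?_
    exact Subgroup.mem_centralizer_iff.1 (h hyY) x ⟨x, hx, rfl⟩

end Ext

end Cfsg.Agent.Bal
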